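import Cfsg.Agent.H2.SzSpec
import Cfsg.Agent.H46.Hall

/-! SZSOL (S3776), job E: reduction to a group of odd order. -/

set_option autoImplicit false

namespace H21.Sz

open Subgroup H2.Sz

universe u

theorem jobE : JobE.{u} := by
  rintro P _ _ hP ⟨x, y, xy, x1, x2, y1, y2⟩ ⟨Y, hY, tr⟩
  have : Fact (Nat.Prime 2) := ⟨Nat.prime_two⟩
  have : Finite (MulAut P) := Finite.of_injective _ (DFunLike.coe_injective (F := MulAut P))
  obtain ⟨H, HY, h1, h2⟩ := H46.hall_exists {q | q ≠ 2} hY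
  have odd : Odd (Nat.card H) := Nat.not_even_iff_odd.1 fun e =>
    h1 2 Nat.prime_two (even_iff_two_dvd.1 e) rfl
  let T : Sylow 2 Y := default
  obtain ⟨k, hk⟩ := IsPGroup.iff_card.1 T.isPGroup'
  have hH : Nat.card (H.subgroupOf Y) = Nat.card H := Nat.card_congr (subgroupOfEquivOfLe HY).toEquiv
  have co : (Nat.card (H.subgroupOf Y)).Coprime (Nat.card (T : Subgroup Y)) := by
    rw [hH, hk]; exact (Nat.coprime_two_right.2 odd).pow_right k
  have hc : IsComplement' (H.subgroupOf Y) T := by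
    refine isComplement'_of_coprime ?_ co
    rw [← (H.subgroupOf Y).card_mul_index]
    congr 1
    refine Nat.dvd_antisymm (co.symm.dvd_of_dvd_mul_left (by
      rw [card_mul_index]; exact card_subgroup_dvd_card _)) ?_
    refine Nat.Coprime.dvd_of_dvd_mul_right (n := (T : Subgroup Y).index)
      (Nat.coprime_of_dvd fun q hq q1 q2 => h2 q hq ?_ q1) (by rw [card_mul_index]; exact index_dvd_card _)
    rintro rfl
    exact T.not_dvd_index q2
  obtain ⟨t, t1, t2, ht⟩ : ∃ t : P, t ≠ 1 ∧ t * t = 1 ∧ ∀ a ∈ (T : Subgroup Y), (a : MulAut P) t = t := by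
    obtain ⟨b, hb, b1⟩ := T.isPGroup'.exists_fixed_point_of_prime_dvd_card_of_fixed_point P
      (a := 1) ((show orderOf x = 2 from orderOf_eq_prime x2 x1) ▸ orderOf_dvd_natCard x)
      fun a => map_one (a.1.1 : MulAut P)
    obtain ⟨n, hn⟩ := (IsPGroup.iff_orderOf.1 hP) b
    have hd : 2 ∣ orderOf b := hn ▸ dvd_pow_self 2 fun e => b1 (by
      rw [e, pow_zero, orderOf_eq_one_iff] at hn; exact hn.symm)
    have o := orderOf_pow_orderOf_div (orderOf_pos b).ne' hd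
    refine ⟨b ^ (orderOf b / 2), fun e => by simp [e] at o, (pow_two _).symm.trans (orderOf_dvd_iff_pow_eq_one.1 o.dvd),
      fun a ha => ?_⟩
    rw [map_pow, show (a : MulAut P) b = b from hb ⟨a, ha⟩]
  have key : ∀ z : P, z ≠ 1 → z * z = 1 → ∃ a ∈ H, a t = z := fun z z1 z2 => by
    obtain ⟨a, ha, e⟩ := tr t z t1 ((pow_two t).trans t2) z1 ((pow_two z).trans z2)
    obtain ⟨⟨h, s⟩, e'⟩ := hc.2 ⟨a, ha⟩
    refine ⟨h.1.1, h.2, ?_⟩
    rw [← e, ← show h.1.1 * s.1.1 = a from congrArg Subtype.val e', MulAut.mul_apply, ht _ s.2]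
  refine ⟨H, hP, fun a b a1 a2 b1 b2 => ?_, ⟨x, y, xy, x1, (pow_two x).symm.trans x2, y1,
    (pow_two y).symm.trans y2⟩, odd, H46.sol_of_le hY HY⟩
  obtain ⟨g, hg, rfl⟩ := key a a1 a2
  obtain ⟨g', hg', rfl⟩ := key b b1 b2
  exact ⟨g' * g⁻¹, mul_mem hg' (inv_mem hg), by simp⟩

end H21.Sz
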