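/- Lifting homomorphisms to Schur covers; representations with a prescribed central character. -/
import Cfsg.Agent.H21.Multiplier

namespace H21

open Subgroup Cfsg

universe u v w

/-- divisible abelian groups are injective (multiplicative form) -/
theorem exists_extension_divisible {M N D : Type*} [CommGroup M] [CommGroup N] [CommGroup D]
    (hD : ∀ n : ℕ, n ≠ 0 → ∀ z : D, ∃ y, y ^ n = z) (f : M →* N) (hf : Function.Injective f)
    (g : M →* D) : ∃ h : N →* D, ∀ x, h (f x) = g x := by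
  let _ : DivisibleBy (Additive D) ℕ := divisibleByOfSMulRightSurj (Additive D) ℕ
    (fun {n} hn z => hD n hn z.toMul)
  let _ : DivisibleBy (Additive D) ℤ := AddGroup.divisibleByIntOfDivisibleByNat (Additive D)
  obtain ⟨h, hh⟩ := (Module.Baer.of_divisible (Additive D)).extension_property_addMonoidHom
    (MonoidHom.toAdditive f) hf (MonoidHom.toAdditive g)
  exact ⟨MonoidHom.toAdditive.symm h, fun x => DFunLike.congr_fun hh (Additive.ofMul x)⟩

/-- A homomorphism from a subgroup `S` with `S ⊓ U' = ⊥` to a divisible abelian group extends. -/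
theorem exists_extension_of_disjoint_commutator {U D : Type*} [Group U] [CommGroup D]
    (hD : ∀ n : ℕ, n ≠ 0 → ∀ z : D, ∃ y, y ^ n = z) (S : Subgroup U)
    (hS : S ⊓ commutator U = ⊥) (g : S →* D) : ∃ h : U →* D, ∀ x : S, h x = g x := by
  have hf : Function.Injective (Abelianization.of.comp S.subtype) := by
    rw [injective_iff_map_eq_one]
    intro x hx
    have h1 : (x : U) ∈ commutator U := by
      rw [← Abelianization.ker_of]; exact hx
    have : (x : U) ∈ S ⊓ commutator U := ⟨x.2, h1⟩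
    rw [hS, mem_bot] at this
    exact Subtype.ext this
  let _ : CommGroup S := { (inferInstance : Group S) with
    mul_comm := fun a b => hf (by rw [map_mul, map_mul, mul_comm]) }
  obtain ⟨h, hh⟩ := exists_extension_divisible hD _ hf g
  exact ⟨h.comp Abelianization.of, hh⟩

/-- descending a lift after correcting it by a central homomorphism -/
theorem exists_descend {U Γ X : Type*} [Group U] [Group Γ] [Group X] (ψ : U →* Γ)
    (hψ : Function.Surjective ψ) (φ μ : U →* X) (hμ : ∀ x, μ x ∈ center X)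
    (h : ∀ s, ψ s = 1 → φ s * μ s = 1) : ∃ η : Γ →* X, ∀ x, η (ψ x) = φ x * μ x := by
  let f := mulCentral φ μ hμ
  refine ⟨ψ.liftOfRightInverse (Function.surjInv hψ) (Function.rightInverse_surjInv hψ)
    ⟨f, fun s hs => h s hs⟩, fun x => ?_⟩
  rw [MonoidHom.liftOfRightInverse_comp_apply]
  rfl

/-- Homomorphisms lift from `Q` to a Schur cover along central extensions with divisible
kernel. -/
theorem lift_to_cover_of_divisible {Q : Type u} [Group Q] {A : Type*} [CommGroup A]
    (hA : HasSchurMultiplier Q A) {Γ : Type*} [Group Γ] (σ : Γ →* Q) (hσ : IsStemExtension σ)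
    (hk : Nat.card σ.ker = Nat.card A) {X Q' : Type*} [Group X] [Group Q'] (ξ : X →* Q')
    (hξ : IsCentralExt ξ) (hD : ∀ n : ℕ, n ≠ 0 → ∀ z : ξ.ker, ∃ y, y ^ n = z) (γ : Q →* Q') :
    ∃ η : Γ →* X, ξ.comp η = γ.comp σ := by
  let π := canPres Q
  have hρ := isCentralExt_freeExtProj π (canPres_surjective Q)
  obtain ⟨ψ, hψ⟩ := exists_freeExt_lift π (MonoidHom.id Q) σ (isCentralExt_of_stem hσ)
  obtain ⟨φ, hφ⟩ := exists_freeExt_lift π γ ξ hξ
  have hψs : Function.Surjective ψ := surjective_of_lift_stem σ hσ ψ (fun d => by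
    obtain ⟨x, hx⟩ := hρ.1 (σ d)
    exact ⟨x, (hψ x).trans hx⟩)
  have hker : ∀ s, ψ s = 1 → freeExtProj π s = 1 := fun s hs => by
    have := hψ s
    rw [hs, map_one] at this
    exact this.symm
  have hS : ψ.ker ⊓ commutator (FreeExt π) = ⊥ := by
    rw [eq_bot_iff]
    intro x hx
    exact eq_one_of_cover hA σ hσ hk _ hρ ψ hψ ⟨hker x hx.1, hx.2⟩ hx.1
  let _ : CommGroup ξ.ker := { (inferInstance : Group ξ.ker) with
    mul_comm := fun a b => Subtype.ext (mem_center_iff.mp (hξ.2 b.2) a.1) }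
  let g : ψ.ker →* ξ.ker := (φ.comp ψ.ker.subtype).codRestrict _ (fun s => by
    rw [MonoidHom.mem_ker, MonoidHom.comp_apply, hφ, coe_subtype, hker s.1 s.2, map_one])
  obtain ⟨μ, hμ⟩ := exists_extension_of_disjoint_commutator hD ψ.ker hS g
  obtain ⟨η, hη⟩ := exists_descend ψ hψs φ (ξ.ker.subtype.comp μ⁻¹)
    (fun x => hξ.2 (μ⁻¹ x).2) (fun s hs => by
      have h1 : (μ s : X) = φ s := congrArg Subtype.val (hμ ⟨s, hs⟩)
      simp [h1])
  refine ⟨η, MonoidHom.ext fun y => ?_⟩
  obtain ⟨x, rfl⟩ := hψs y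
  have h2 : ξ (μ x) = 1 := (μ x).2
  simp [hη, hφ, hψ, h2]

theorem center_GL_divisible (n : ℕ) (k : ℕ) (hk : k ≠ 0) (z : GL (Fin n) ℂ)
    (hz : z ∈ center (GL (Fin n) ℂ)) : ∃ y ∈ center (GL (Fin n) ℂ), y ^ k = z := by
  rw [Matrix.GeneralLinearGroup.center_eq_range_scalar] at hz ⊢
  obtain ⟨a, rfl⟩ := hz
  obtain ⟨b, hb⟩ := IsAlgClosed.exists_pow_nat_eq (a : ℂ) (Nat.pos_of_ne_zero hk)
  have hb0 : b ≠ 0 := by
    rintro rfl
    rw [zero_pow hk] at hb
    exact a.ne_zero hb.symm
  refine ⟨_, ⟨Units.mk0 b hb0, rfl⟩, ?_⟩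
  rw [← map_pow]
  congr 1
  exact Units.ext hb

/-- the functions on `Γ` transforming under `K` by the character `l` -/
def equivariantFun {Γ : Type*} [Group Γ] (K : Subgroup Γ) (l : K →* ℂˣ) : Submodule ℂ (Γ → ℂ) where
  carrier := {f | ∀ (k : K) (g : Γ), f (k * g) = l k * f g}
  add_mem' := fun {f f'} hf hf' k g => by
    simp only [Pi.add_apply, hf k g, hf' k g, mul_add]
  zero_mem' := fun k g => by simp
  smul_mem' := fun c f hf k g => by
    simp only [Pi.smul_apply, hf k g, smul_eq_mul]; ring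

/-- the monomial representation induced from the character `l` of `K` -/
def equivariantRep {Γ : Type*} [Group Γ] (K : Subgroup Γ) (l : K →* ℂˣ) :
    Γ →* (equivariantFun K l →ₗ[ℂ] equivariantFun K l) where
  toFun g :=
    { toFun := fun f => ⟨fun x => f.1 (x * g), fun k x => by
        simp only [mul_assoc]; exact f.2 k _⟩
      map_add' := fun _ _ => rfl
      map_smul' := fun _ _ => rfl }
  map_one' := by ext f x; simp
  map_mul' g h := by ext f x; simp [mul_assoc]

theorem equivariantFun_nontrivial {Γ : Type*} [Group Γ] (K : Subgroup Γ) (l : K →* ℂˣ) :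
    Nontrivial (equivariantFun K l) := by
  classical
  refine ⟨⟨⟨fun g => if h : g ∈ K then l ⟨g, h⟩ else 0, fun k g => ?_⟩, 0, fun h => ?_⟩⟩
  · by_cases hg : g ∈ K
    · have h1 : (k : Γ) * g ∈ K := K.mul_mem k.2 hg
      simp only [dif_pos hg, dif_pos h1]
      rw [← Units.val_mul, ← map_mul]
      rfl
    · have h1 : (k : Γ) * g ∉ K := fun h => hg (by simpa using K.mul_mem (K.inv_mem k.2) h)
      simp only [dif_neg hg, dif_neg h1, mul_zero]
  · have := congrFun (congrArg Subtype.val h) 1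
    simp at this

/-- A finite group has a nonzero matrix representation on which a given central subgroup acts by
a given character. -/
theorem exists_rep_central_character {Γ : Type*} [Group Γ] [Finite Γ] (K : Subgroup Γ)
    (hK : K ≤ center Γ) (l : K →* ℂˣ) :
    ∃ (n : ℕ) (ρ : Γ →* GL (Fin n) ℂ), 0 < n ∧
      ∀ k : K, ρ k = Matrix.GeneralLinearGroup.scalar (Fin n) (l k) := by
  let V := equivariantFun K l
  have := equivariantFun_nontrivial K l
  let b := Module.finBasis ℂ V
  let e := LinearMap.toMatrixAlgEquiv b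
  refine ⟨Module.finrank ℂ V, (e.toMulEquiv.toMonoidHom.comp (equivariantRep K l)).toHomUnits,
    Module.finrank_pos, fun k => Units.ext ?_⟩
  have h1 : equivariantRep K l k = algebraMap ℂ _ (l k : ℂ) := by
    ext f x
    change f.1 (x * k) = (l k : ℂ) * f.1 x
    rw [mem_center_iff.mp (hK k.2) x]
    exact f.2 k x
  change e (equivariantRep K l k) = _
  rw [h1, AlgEquiv.commutes]
  rfl

/-- If all projective representations of `Q` lift to the stem extension `σ`, it is a Schur
cover. -/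
theorem cover_of_projective_lift {Q : Type u} [Group Q] [Finite Q] {Γ : Type*} [Group Γ]
    (σ : Γ →* Q) (hσ : IsStemExtension σ)
    (hlift : ∀ (n : ℕ) (γ : Q →* (GL (Fin n) ℂ ⧸ center (GL (Fin n) ℂ))),
      ∃ ρ : Γ →* GL (Fin n) ℂ,
        (QuotientGroup.mk' (center (GL (Fin n) ℂ))).comp ρ = γ.comp σ) :
    Nonempty (σ.ker ≃* hopf (canPres Q)) := by
  refine cover_of_injective σ hσ (fun φ hφ x hx h1 => ?_)
  by_contra hne
  have hM := hasSchurMultiplier_can Q
  have hρ := isCentralExt_freeExtProj _ (canPres_surjective Q)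
  obtain ⟨Δ, _, _, τ, hτ, ⟨e⟩⟩ := hM.1
  obtain ⟨ψ, hψ⟩ := exists_freeExt_lift (canPres Q) (MonoidHom.id Q) τ (isCentralExt_of_stem hτ)
  have h2 : ψ x ≠ 1 := fun h =>
    hne (eq_one_of_cover hM τ hτ (Nat.card_congr e.toEquiv) _ hρ ψ hψ hx h)
  have h3 : ψ x ∈ τ.ker := (hψ x).trans hx.1
  let _ : CommGroup τ.ker := { (inferInstance : Group τ.ker) with
    mul_comm := fun a b => Subtype.ext (mem_center_iff.mp (hτ.2.1 b.2) a.1) }
  obtain ⟨l, hl⟩ := CommGroup.exists_apply_ne_one_of_hasEnoughRootsOfUnity τ.ker ℂ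
    (a := ⟨ψ x, h3⟩) (fun h => h2 (congrArg Subtype.val h))
  obtain ⟨n, ρ', hn, hρ'⟩ := exists_rep_central_character τ.ker hτ.2.1 l
  let γ : Q →* (GL (Fin n) ℂ ⧸ center (GL (Fin n) ℂ)) :=
    τ.liftOfRightInverse (Function.surjInv hτ.1) (Function.rightInverse_surjInv hτ.1)
      ⟨(QuotientGroup.mk' _).comp ρ', fun k hk => by
        rw [MonoidHom.mem_ker, MonoidHom.comp_apply, QuotientGroup.mk'_apply,
          QuotientGroup.eq_one_iff, hρ' ⟨k, hk⟩, Matrix.GeneralLinearGroup.center_eq_range_scalar]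
        exact ⟨_, rfl⟩⟩
  have hγ : ∀ d, γ (τ d) = QuotientGroup.mk' _ (ρ' d) := fun d =>
    MonoidHom.liftOfRightInverse_comp_apply _ _ _ _ d
  obtain ⟨ρ, hρ2⟩ := hlift n γ
  have h4 := eq_on_commutator (QuotientGroup.mk' (center (GL (Fin n) ℂ)))
    (by rw [QuotientGroup.ker_mk']) (ρ.comp φ) (ρ'.comp ψ) (fun y => by
      have := DFunLike.congr_fun hρ2 (φ y)
      simp only [MonoidHom.comp_apply] at this ⊢
      rw [this, ← hγ, hφ, hψ, MonoidHom.id_apply]) hx.2
  simp only [MonoidHom.comp_apply, h1, map_one] at h4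
  rw [hρ' ⟨ψ x, h3⟩] at h4
  apply hl
  have h5 := congrArg (fun M : GL (Fin n) ℂ => (M : Matrix (Fin n) (Fin n) ℂ) ⟨0, hn⟩ ⟨0, hn⟩) h4
  simp at h5
  exact Units.ext h5.symm

end H21
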